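import Cfsg.Agent.H949.OC.Inst
import Cfsg.Agent.H985.OC.Defs

/-!
# S4891, defining characteristic, tool T6: the self-dual cuspidal character of `GL_2(K)` (helper949)
-/

set_option autoImplicit false

open scoped ComplexConjugate
open Cfsg

namespace Cfsg.Agent.H949.OC

open Cfsg.Agent.Characters Cfsg.Agent.H53.HC Cfsg.Agent.H477.HC Cfsg.Agent.H576.Ext Cfsg.Agent.H145.BR

universe u

/-- `Good` and trivial on the scalars -/
theorem Good.cdat {p : ℕ} {K : Type u} [Field K] {k e : ℕ} {c : GL (Fin k) K → ℂ} (h : Good p K k e c)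
    (hs : ∀ (z : Kˣ) (g : GL (Fin k) K), c (Matrix.GeneralLinearGroup.scalar (Fin k) z * g) = c g) :
    H985.OC.CDat p K k c where
  irr := h.irr
  cusp := h.cusp
  scal z := by
    have := hs z 1
    rwa [mul_one] at this
  rat := h.rat
  fix := h.hfix
  deg := ⟨_, h.deg, h.pdeg⟩

theorem comp_invT_of_dualc {K : Type u} [Field K] {k : ℕ} {c : GL (Fin k) K → ℂ} (h : dualc (RingHom.id K) c = c) :
    c ∘ invT k = c := by
  funext A
  have h1 := congrFun h A
  have h2 : Matrix.GeneralLinearGroup.map (RingHom.id K) (invT k A) = invT k A := by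
    ext i j
    rfl
  rw [dualc, Function.comp_apply, MonoidHom.comp_apply, h2] at h1
  exact h1

/-- **R1, helper985** -/
theorem exists_cself {p : ℕ} [hp : Fact p.Prime] (hp2 : p ≠ 2) (K : Type u) [Field K] [Finite K] [CharP K p] :
    ∃ c : GL (Fin 2) K → ℂ, H985.OC.CDat p K 2 c ∧ c ∘ invT 2 = c ∧ c 1 = (Nat.card K : ℂ) - 1 := by
  obtain ⟨f₀, l, hf, hK⟩ := exists_decomp p K
  obtain ⟨c, hc, hd, hs, -⟩ := exists_plus hp2 hf hK
  refine ⟨c, hc.cdat hs, comp_invT_of_dualc hd, ?_⟩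
  rw [hc.deg, Finset.prod_eq_single_of_mem 1 (by simp) (fun i hi h => absurd hi (by
    rw [Finset.mem_Ico]
    omega)), pow_one, Nat.cast_sub Nat.card_pos, Nat.cast_one]

end Cfsg.Agent.H949.OC
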